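import Cfsg.Prelude.Def_CaseTheorems
import Cfsg.Agent.H997.Rg.Irr
import Cfsg.Agent.Involutions.BaerSuzuki
import Cfsg.Agent.H376.Rg997.Core

/-!
# S3691, `suz_small` for helper997 (helper376)
-/

set_option autoImplicit false

open Subgroup Cfsg Module

namespace Cfsg.Agent.H376.Rg997

open Cfsg.Agent.H997.Rg

universe u v w

section

variable {G : Type v} [Group G] [Finite G] {F : Type u} {W : Type w} [Field F] [Finite F]
    [CharP F 2] [AddCommGroup W] [Module F W] [FiniteDimensional F W] {σ : G →* Module.End F W}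

/-- a perfect group with cyclic Sylow subgroups for the prime divisors of the centre has trivial centre -/
theorem center_bot {G : Type v} [Group G] [Finite G] (hG : Group.IsPerfect G)
    (hcyc : ∀ s : ℕ, s.Prime → s ∣ Nat.card (center G) → ∀ P : Sylow s G, IsCyclic P) : center G = ⊥ := by
  by_contra hne
  have h1 : Nat.card (center G) ≠ 1 := fun h => hne (Subgroup.eq_bot_of_card_eq _ h)
  obtain ⟨s, hs, hsd⟩ := Nat.exists_prime_and_dvd h1
  have := Fact.mk hs
  obtain ⟨⟨z, hz⟩, hzo⟩ := exists_prime_orderOf_dvd_card' (G := center G) s hsd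
  rw [Subgroup.orderOf_mk] at hzo
  obtain ⟨P⟩ : Nonempty (Sylow s G) := inferInstance
  have hPc := hcyc s hs hsd P
  have hzc : ∀ g : G, g * z = z * g := mem_center_iff.1 hz
  have hzn : (zpowers z).Normal := ⟨fun x hx g => by
    obtain ⟨k, rfl⟩ := mem_zpowers_iff.1 hx
    have h2 : Commute g (z ^ k) := Commute.zpow_right (hzc g) k
    rw [h2.eq, mul_inv_cancel_right]
    exact hx⟩
  have hzP : z ∈ P := by
    have h2 : IsPGroup s (zpowers z) := IsPGroup.of_card (n := 1) (by rw [Nat.card_zpowers, hzo, pow_one])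
    exact h2.le_sylow_of_normal P (mem_zpowers z)
  let _ : CommGroup P := IsCyclic.commGroup
  have h3 := MonoidHom.transfer_eq_pow (MonoidHom.id (P : Subgroup G)) z (fun k g0 _ => by
    have h2 : Commute g0 (z ^ k) := Commute.pow_right (hzc g0) k
    rw [mul_assoc, ← h2.eq, inv_mul_cancel_left])
  have h4 : (MonoidHom.transfer (MonoidHom.id (P : Subgroup G))) z = 1 := by
    have h5 : z ∈ commutator G := by rw [hG.commutator_eq_top]; trivial
    exact Abelianization.commutator_subset_ker _ h5
  rw [h4] at h3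
  have h5 : z ^ (P : Subgroup G).index = 1 := (congrArg Subtype.val h3).symm
  have h6 := orderOf_dvd_of_pow_eq_one h5
  rw [hzo] at h6
  exact P.not_dvd_index h6

/-- the fixed space of an involution -/
theorem card_ker (hinj : Function.Injective σ) (hfp : Fpf 2 σ) [Nontrivial W] {y : G}
    (hirr : ∀ U : Submodule F W, (∀ u ∈ U, σ y u ∈ U) → U = ⊥ ∨ U = ⊤) {t : G} (ht : t * t = 1) (ht1 : t ≠ 1) :
    Nat.card (LinearMap.ker (σ t - 1 : Module.End F W)) ^ 2 = Nat.card W := by
  have hfW : Finite W := Module.finite_of_finite F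
  have hinv : t⁻¹ = t := inv_eq_of_mul_eq_one_left ht
  obtain ⟨h, hh1, hodd, hth⟩ := Involutions.BaerSuzuki.exists_odd_inverted t ht (by
    intro hO
    have h1 := irr_bot Nat.prime_two hinj hirr (Subgroup.normalClosure {t}) hO (fun a ha => by
      have := Subgroup.normalClosure_normal.conj_mem a ha y⁻¹
      rwa [inv_inv] at this)
    have h2 : t ∈ Subgroup.normalClosure {t} := Subgroup.subset_normalClosure rfl
    rw [h1, mem_bot] at h2
    exact ht1 h2)
  -- an element of odd prime order
  obtain ⟨s, hs, hsd⟩ := Nat.exists_prime_and_dvd (n := orderOf h) (fun h1 => hh1 (orderOf_eq_one_iff.1 h1))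
  obtain ⟨u, huo, htu⟩ : ∃ u : G, orderOf u = s ∧ t * u * t⁻¹ = u⁻¹ := by
    refine ⟨h ^ (orderOf h / s), orderOf_pow_orderOf_div (orderOf_pos h).ne' hsd, ?_⟩
    rw [← conj_pow, hth, inv_pow]
  have hs2 : s ≠ 2 := by
    rintro rfl
    exact (Nat.not_even_iff_odd.2 hodd) (even_iff_two_dvd.2 hsd)
  have hso : Odd s := hs.odd_of_ne_two hs2
  obtain ⟨k, hk⟩ := hso
  -- `t` and `t u` are conjugate
  set c : G := u ^ k with hc
  have htc : t * c * t⁻¹ = c⁻¹ := by rw [hc, ← conj_pow, htu, inv_pow]
  have hct : c * t * c⁻¹ = t * u := by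
    have h1 : c * t = t * c⁻¹ := by
      have h2 : t * c⁻¹ * t⁻¹ = c := by rw [← conj_inv, htc, inv_inv]
      calc c * t = t * c⁻¹ * t⁻¹ * t := by rw [h2]
        _ = t * c⁻¹ := by group
    rw [h1, mul_assoc]
    congr 1
    have h4 : c * c * u = 1 := by
      rw [hc, ← pow_add, ← pow_succ, show k + k + 1 = s by omega, ← huo, pow_orderOf_eq_one]
    rw [← mul_inv_rev]
    exact (eq_inv_of_mul_eq_one_right h4).symm
  let K1 := LinearMap.ker (σ t - 1 : Module.End F W)
  let K2 := LinearMap.ker (σ (t * u) - 1 : Module.End F W)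
  have hm1 : ∀ v, v ∈ K1 ↔ σ t v = v := fun v => by
    rw [LinearMap.mem_ker, LinearMap.sub_apply, sub_eq_zero]; rfl
  have hm2 : ∀ v, v ∈ K2 ↔ σ (t * u) v = v := fun v => by
    rw [LinearMap.mem_ker, LinearMap.sub_apply, sub_eq_zero]; rfl
  have hmul : ∀ (a b : G) (v : W), σ (a * b) v = σ a (σ b v) := fun a b v => by rw [map_mul]; rfl
  have hone : ∀ v : W, σ 1 v = v := fun v => by rw [map_one]; rfl
  have hle : finrank F K1 ≤ finrank F K2 := by
    have h1 : K1.map (σ c) ≤ K2 := by
      rintro _ ⟨v, hv, rfl⟩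
      have hv' := (hm1 v).1 hv
      rw [hm2, ← hct, hmul, hmul, ← hmul c⁻¹ c, inv_mul_cancel, hone, hv']
    have hci : Function.Injective (σ c) := by
      intro v w hvw
      have h2 := congrArg (σ c⁻¹) hvw
      rwa [← hmul, ← hmul, inv_mul_cancel, hone, hone] at h2
    have h2 := Submodule.finrank_mono h1
    rwa [← LinearEquiv.finrank_eq (Submodule.equivMapOfInjective (σ c) hci K1)] at h2
  have hinf : K1 ⊓ K2 = ⊥ := by
    rw [eq_bot_iff]
    rintro v ⟨hv1, hv2⟩
    have hv1 := (hm1 v).1 hv1
    have hv2 := (hm2 v).1 hv2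
    rw [hmul] at hv2
    have h3 : σ u v = v := by
      have h4 := congrArg (σ t) hv2
      rwa [← hmul, ht, hone, hv1] at h4
    exact hfp u (by rw [huo]; exact hs) (by rw [huo]; exact hs2) v h3
  have h5 := Submodule.finrank_sup_add_finrank_inf_eq K1 K2
  rw [hinf, finrank_bot, add_zero] at h5
  have h6 := Submodule.finrank_le (K1 ⊔ K2)
  have h7 : LinearMap.range (σ t - 1 : Module.End F W) ≤ K1 := by
    rintro _ ⟨v, rfl⟩
    rw [hm1, LinearMap.sub_apply, map_sub, Module.End.one_apply, ← hmul, ht, hone]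
    have h8 : ∀ x : W, x + x = 0 := fun x => by
      rw [← two_smul F x, show (2 : F) = ((2 : ℕ) : F) by norm_num, CharP.cast_eq_zero, zero_smul]
    have h9 := h8 (σ t v - v)
    have h10 : v - σ t v = -(σ t v - v) := by abel
    rw [h10]
    exact (eq_neg_of_add_eq_zero_left h9).symm
  have h8 := LinearMap.finrank_range_add_finrank_ker (σ t - 1 : Module.End F W)
  have h9 := Submodule.finrank_mono h7
  have h10 : finrank F W = 2 * finrank F K1 := by
    have : finrank F (LinearMap.ker (σ t - 1 : Module.End F W)) = finrank F K1 := rfl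
    omega
  rw [Module.natCard_eq_pow_finrank (K := F) (V := W), h10, mul_comm, pow_mul]
  congr 1
  exact Module.natCard_eq_pow_finrank (K := F)

/-- **a quasisimple group of type `Sz(2 ^ b)` on a space with `2 ^ (4 b)` elements has at most `2 ^ b` endomorphisms** -/
theorem suz_small {G : Type v} [Group G] [Finite G] (hG : IsQuasisimple G) {F : Type u} {W : Type w} [Field F] [Finite F]
    [CharP F 2] [AddCommGroup W] [Module F W] [FiniteDimensional F W] (σ : G →* Module.End F W)
    (hinj : Function.Injective σ) (hfp : Fpf 2 σ) {y : G} (hirr : ∀ U : Submodule F W, (∀ u ∈ U, σ y u ∈ U) → U = ⊥ ∨ U = ⊤)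
    {b : ℕ} (hb : 2 ≤ b) (hW : Nat.card W = 2 ^ (4 * b))
    (hcard : Nat.card (G ⧸ center G) = (2 ^ b) ^ 2 * ((2 ^ b) ^ 2 + 1) * (2 ^ b - 1))
    (S : Set (Module.End F W)) (hS : ∀ e ∈ S, ∀ g, e * σ g = σ g * e) : Nat.card S ≤ 2 ^ b := by
  classical
  have hfW : Finite W := Module.finite_of_finite F
  have hnt : Nontrivial W := by
    rw [← Finite.one_lt_card_iff_nontrivial, hW]
    exact Nat.one_lt_two_pow (by omega)
  have hfE : Finite (Module.End F W) := Module.finite_of_finite F
  -- the centre
  have hcent : center G = ⊥ := by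
    have h1 := irr_cent Nat.prime_two hinj hirr
    have h2 : center G ≤ centralizer ({y} : Set G) := Subgroup.center_le_centralizer _
    refine center_bot hG.1 fun s hs hsd P => hfp.cyc Nat.prime_two hs ?_ ?_ P
    · rintro rfl
      exact h1 (hsd.trans (Subgroup.card_dvd_of_le h2))
    · rintro rfl
      exact h1 (hsd.trans (Subgroup.card_dvd_of_le h2))
  have hGc : Nat.card G = (2 ^ b) ^ 2 * (((2 ^ b) ^ 2 + 1) * (2 ^ b - 1)) := by
    rw [Subgroup.card_eq_card_quotient_mul_card_subgroup (center G), hcard, hcent, Subgroup.card_bot, mul_one, mul_assoc]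
  -- the endomorphism ring
  let D : Subalgebra F (Module.End F W) := Subalgebra.centralizer F (Set.range σ)
  have hDm : ∀ e : Module.End F W, e ∈ D ↔ ∀ g, σ g * e = e * σ g := by
    intro e
    rw [Subalgebra.mem_centralizer_iff]
    exact Set.forall_mem_range
  have hSD : S ⊆ (D : Set (Module.End F W)) := fun e he => (hDm e).2 fun g => (hS e he g).symm
  have hker : ∀ e : D, e ≠ 0 → LinearMap.ker (e : Module.End F W) = ⊥ := by
    intro e he
    refine (hirr _ ?_).resolve_right ?_
    · intro u hu
      rw [LinearMap.mem_ker] at hu ⊢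
      have h1 : (σ y * (e : Module.End F W)) u = ((e : Module.End F W) * σ y) u := by rw [(hDm e).1 e.2 y]
      change σ y ((e : Module.End F W) u) = (e : Module.End F W) (σ y u) at h1
      rw [← h1, hu, map_zero]
    · intro h
      apply he
      rw [LinearMap.ker_eq_top] at h
      exact Subtype.ext h
  have hfD : Finite D := Subtype.finite
  have hDdom : IsDomain D := by
    have h1 : NoZeroDivisors D := ⟨by
      intro e f hef
      by_contra hcon
      rw [not_or] at hcon
      apply hcon.2
      apply Subtype.ext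
      ext w
      have h2 : (f : Module.End F W) w ∈ LinearMap.ker (e : Module.End F W) := by
        rw [LinearMap.mem_ker]
        exact LinearMap.congr_fun (congrArg Subtype.val hef) w
      rw [hker e hcon.1, Submodule.mem_bot] at h2
      exact h2⟩
    have h2 : Nontrivial D := ⟨⟨0, 1, fun h => zero_ne_one (congrArg Subtype.val h)⟩⟩
    exact NoZeroDivisors.to_isDomain D
  let _ : Fintype D := Fintype.ofFinite D
  let _ : DivisionRing D := Fintype.divisionRingOfIsDomain D
  have hsm : ∀ (e : D) (w : W), e • w = (e : Module.End F W) w := fun e w => rfl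
  let ρ : G →* Module.End D W :=
    { toFun := fun g =>
        { toFun := fun w => σ g w
          map_add' := fun v w => map_add _ v w
          map_smul' := fun e w => LinearMap.congr_fun ((hDm e).1 e.2 g) w }
      map_one' := by
        ext w
        change σ 1 w = w
        rw [map_one]; rfl
      map_mul' := fun g h => by
        ext w
        change σ (g * h) w = σ g (σ h w)
        rw [map_mul]; rfl }
  have hρ : ∀ g w, ρ g w = σ g w := fun g w => rfl
  have hS1 : Nat.card S ≤ Nat.card D := Nat.card_le_card_of_injective (Set.inclusion hSD) (Set.inclusion_injective hSD)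
  refine hS1.trans ?_
  by_contra hcon
  rw [not_le] at hcon
  -- the kernels of the involutions
  have hinv0 : ∀ t : G, t * t = 1 → t ≠ 1 → Nat.card (LinearMap.ker (ρ t - 1 : Module.End D W)) = 2 ^ (2 * b) := by
    intro t ht ht1
    have h1 := card_ker hinj hfp hirr ht ht1
    rw [hW, show 4 * b = 2 * b * 2 by ring, pow_mul] at h1
    have h2 := Nat.pow_left_injective two_ne_zero h1
    rw [← h2]
    exact Nat.card_congr (Equiv.refl _)
  have hev : 2 ∣ Nat.card G := by
    rw [hGc]
    exact Dvd.dvd.mul_right (dvd_pow (dvd_pow_self 2 (by omega)) two_ne_zero) _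
  have h2p : Fact (Nat.Prime 2) := ⟨Nat.prime_two⟩
  obtain ⟨t, hto⟩ := exists_prime_orderOf_dvd_card' (G := G) 2 hev
  have htt : t * t = 1 := by rw [← pow_two, ← hto, pow_orderOf_eq_one]
  have ht1 : t ≠ 1 := by
    rintro rfl
    rw [orderOf_one] at hto
    omega
  have h1 := hinv0 t htt ht1
  rw [Module.natCard_eq_pow_finrank (K := D)] at h1
  have h2b : 2 ^ (2 * b) = (2 ^ b) ^ 2 := by rw [mul_comm, pow_mul]
  have hk : finrank D (LinearMap.ker (ρ t - 1 : Module.End D W)) = 1 := by
    generalize finrank D (LinearMap.ker (ρ t - 1 : Module.End D W)) = k at h1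
    have hk0 : k ≠ 0 := by
      rintro rfl
      rw [pow_zero] at h1
      have := Nat.one_lt_two_pow (n := 2 * b) (by omega)
      omega
    have hk2 : k < 2 := by
      by_contra hk2
      have h3 : Nat.card D ^ 2 ≤ Nat.card D ^ k := Nat.pow_le_pow_right Nat.card_pos (by omega)
      rw [h1, h2b] at h3
      have h4 := (Nat.pow_le_pow_iff_left two_ne_zero).1 h3
      omega
    omega
  rw [hk, pow_one] at h1
  have hb4 : 4 ≤ 2 ^ b := by
    calc 4 = 2 ^ 2 := by norm_num
      _ ≤ 2 ^ b := Nat.pow_le_pow_right two_pos hb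
  refine core ρ (N := 2 ^ (2 * b)) (M := ((2 ^ b) ^ 2 + 1) * (2 ^ b - 1)) (a := 2 * b) rfl (by omega) h1
    (by rw [hW, ← pow_mul]; congr 1; ring) (by rw [hGc, h2b]) ?_ ?_ hinv0 ?_ ?_
  · have he : Even (2 ^ b) := (even_two).pow_of_ne_zero (by omega)
    refine Odd.mul ?_ ?_
    · exact (he.pow_of_ne_zero two_ne_zero).add_one
    · exact Nat.Even.sub_odd (by omega) he odd_one
  · rw [h2b]
    generalize 2 ^ b = q at hb4
    obtain ⟨r, rfl⟩ : ∃ r, q = r + 1 := ⟨q - 1, by omega⟩
    rw [Nat.add_sub_cancel]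
    have h3 : (r + 1) ^ 2 + ((r + 1) ^ 2 + 1) * r < ((r + 1) ^ 2) ^ 2 := by nlinarith [sq_nonneg (r * r)]
    omega
  · intro P hP
    have h3 := fixW_ne_bot (ρ := σ) Nat.prime_two P hP
    obtain ⟨w, hw, hw0⟩ := (Submodule.ne_bot_iff _).1 h3
    exact ⟨w, hw0, fun x hx => hw x hx⟩
  · intro U hU
    let U' : Submodule F W :=
      { carrier := U
        zero_mem' := U.zero_mem
        add_mem' := fun h h' => U.add_mem h h'
        smul_mem' := fun c w hw => U.smul_mem (algebraMap F D c) hw }
    rcases hirr U' (fun u hu => hU y u hu) with h | h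
    · left
      rw [eq_bot_iff]
      intro u hu
      have h3 : u ∈ U' := hu
      rw [h, Submodule.mem_bot] at h3
      exact h3
    · right
      rw [eq_top_iff]
      intro u _
      have h3 : u ∈ U' := by rw [h]; trivial
      exact h3

end

end Cfsg.Agent.H376.Rg997
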